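import Cfsg.Agent.H49.PerfectAniso
import Mathlib.GroupTheory.Nilpotent
import Mathlib.LinearAlgebra.Dimension.Free
import Mathlib.Algebra.Module.ZMod

/-!
# A perfect group fixing the few involutions of a two-group fixes the whole group
-/

set_option autoImplicit false

namespace Cfsg.Agent.H49.ThreeInv

open Cfsg.Agent.H49.Aniso

/-- An elementary abelian group of order at most four embeds in the four-group. -/
theorem exists_four_embedding (A : Type*) [CommGroup A] [Finite A] (h2 : ∀ a : A, a * a = 1)
    (h4 : Nat.card A ≤ 4) : ∃ ψ : A → U, (∀ a c, ψ (a * c) = ψ a + ψ c) ∧ ∀ a, ψ a = 0 → a = 1 := by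
  classical
  letI : Module (ZMod 2) (Additive A) := AddCommGroup.zmodModule fun a => by
    rw [two_nsmul]; exact congrArg Additive.ofMul (h2 (Additive.toMul a))
  set r := Module.finrank (ZMod 2) (Additive A) with hr
  let B := Module.finBasis (ZMod 2) (Additive A)
  let e := B.equivFun
  have hrle : r ≤ 2 := by
    by_contra h
    have h1 : Nat.card (Additive A) = 2 ^ r := by
      rw [Nat.card_congr e.toEquiv, Nat.card_fun, Nat.card_eq_fintype_card (α := ZMod 2),
        ZMod.card, Nat.card_fin]
    have h3 : 2 ^ 3 ≤ 2 ^ r := Nat.pow_le_pow_right (by omega) (by omega)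
    rw [Nat.card_congr Additive.toMul] at h1
    omega
  refine ⟨fun a => (if h : 0 < r then e (Additive.ofMul a) ⟨0, h⟩ else 0,
    if h : 1 < r then e (Additive.ofMul a) ⟨1, h⟩ else 0), fun a c => ?_, fun a ha => ?_⟩
  · ext <;> dsimp only [Prod.fst_add, Prod.snd_add] <;> split <;>
      simp [ofMul_mul]
  · have h0 : e (Additive.ofMul a) = 0 := by
      funext i
      obtain ⟨i, hi⟩ := i
      rw [Prod.ext_iff] at ha
      match i, hi with
      | 0, hi => simpa [show 0 < r from hi] using ha.1
      | 1, hi => simpa [show 1 < r from hi] using ha.2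
      | i + 2, hi => exact absurd (lt_of_lt_of_le hi hrle) (by omega)
    exact Additive.ofMul.injective (e.map_eq_zero_iff.1 h0)

variable {X E : Type*} [Group X] [Finite X] [Group E] (φ : E →* MulAut X)

/-- If the displacements of `y` lie in a fixed subgroup, a perfect group fixes `y`. -/
theorem fixed_of_displacement (h2 : IsPGroup 2 X) (hperf : commutator E = ⊤) (N : Subgroup X)
    (hN : ∀ n ∈ N, ∀ e, φ e n = n) (y : X) (hy : ∀ e, y⁻¹ * φ e y ∈ N) (e : E) : φ e y = y := by
  let f : E →* ↥N :=
    { toFun := fun e => ⟨y⁻¹ * φ e y, hy e⟩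
      map_one' := Subtype.ext (by simp)
      map_mul' := fun e e' => Subtype.ext (by
        have h : φ e' y = y * (y⁻¹ * φ e' y) := (mul_inv_cancel_left _ _).symm
        show y⁻¹ * φ (e * e') y = (y⁻¹ * φ e y) * (y⁻¹ * φ e' y)
        rw [map_mul, MulAut.mul_apply]
        conv_lhs => rw [h, map_mul (φ e), hN _ (hy e') e]
        rw [mul_assoc]) }
  have : Fact (Nat.Prime 2) := ⟨Nat.prime_two⟩
  have : Group.IsNilpotent X := h2.isNilpotent
  have h := perfect_hom_eq_one hperf f inferInstance e
  exact (inv_mul_eq_one.1 (congrArg Subtype.val h)).symm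

/-- The fixed elements. -/
def fixedSub : Subgroup X where
  carrier := {x | ∀ e, φ e x = x}
  one_mem' e := map_one _
  mul_mem' {a b} ha hb e := by rw [map_mul, ha e, hb e]
  inv_mem' {a} ha e := by rw [map_inv, ha e]

theorem fixed_of_invariant (h2 : IsPGroup 2 X) (hperf : commutator E = ⊤)
    (hinv : ∀ e x, x * x = 1 → φ e x = x) (h4 : Nat.card {x : X // x * x = 1} ≤ 4) (n : ℕ) :
    ∀ Y : Subgroup X, Nat.card Y = n → (∀ e, ∀ y ∈ Y, φ e y ∈ Y) →
      ∀ y ∈ Y, ∀ e, φ e y = y := by
  classical
  induction n using Nat.strong_induction_on with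
  | _ n IH =>
    intro Y hn hY
    set C : Subgroup X := Y ⊓ fixedSub φ with hCdef
    suffices hYC : Y ≤ C from fun y hy => (hYC hy).2
    by_contra hYC
    have hCfix : ∀ c ∈ C, ∀ e, φ e c = c := fun c hc => hc.2
    have hCY : C ≤ Y := inf_le_left
    have hsub : ∀ N : Subgroup X, N ≤ Y → (∀ e, ∀ y ∈ N, φ e y ∈ N) → N = Y ∨ N ≤ C := by
      intro N hNY hN
      by_cases hne : Nat.card Y ≤ Nat.card N
      · exact Or.inl (Subgroup.eq_of_le_of_card_ge hNY hne)
      · exact Or.inr fun y hy => ⟨hNY hy, IH _ (by omega) N rfl hN y hy⟩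
    have hfx : ∀ y ∈ Y, (∀ e, y⁻¹ * φ e y ∈ C) → y ∈ C := fun y hy h =>
      ⟨hy, fixed_of_displacement φ h2 hperf C hCfix y h⟩
    -- the displacements generate Y
    set D : Subgroup X := Subgroup.closure {d | ∃ e, ∃ y ∈ Y, d = y⁻¹ * φ e y} with hD
    have hDY : D = Y := by
      rcases hsub D ((Subgroup.closure_le Y).2 (by
          rintro _ ⟨e, y, hy, rfl⟩; exact Y.mul_mem (Y.inv_mem hy) (hY e y hy))) (fun e d hd => by
          have hle : D ≤ D.comap (φ e).toMonoidHom := (Subgroup.closure_le _).2 (by
            rintro _ ⟨e', y, hy, rfl⟩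
            refine Subgroup.subset_closure ⟨e * e' * e⁻¹, φ e y, hY e y hy, ?_⟩
            show φ e (y⁻¹ * φ e' y) = (φ e y)⁻¹ * φ (e * e' * e⁻¹) (φ e y)
            rw [map_mul (φ e), map_inv (φ e), map_mul φ, map_mul φ, MulAut.mul_apply,
              MulAut.mul_apply, map_inv φ e, MulAut.inv_apply_self])
          exact hle hd) with h | h
      · exact h
      · exact absurd (fun y hy => hfx y hy fun e =>
          h (Subgroup.subset_closure ⟨e, y, hy, rfl⟩)) hYC
    -- C is normalized by Y
    have hnor : ∀ y ∈ Y, y ∈ Subgroup.normalizer (C : Set X) := by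
      have hN : ∀ e, ∀ m ∈ Y ⊓ Subgroup.normalizer (C : Set X),
          φ e m ∈ Y ⊓ Subgroup.normalizer (C : Set X) := by
        intro e m hm
        refine ⟨hY e m hm.1, Subgroup.mem_normalizer_iff.2 fun c => ?_⟩
        have hm2 := Subgroup.mem_normalizer_iff.1 hm.2
        constructor
        · intro hc
          have := (hm2 c).1 hc
          have he : φ e m * c * (φ e m)⁻¹ = m * c * m⁻¹ := by
            rw [← hCfix _ this e, map_mul, map_mul, map_inv, hCfix c hc e]
          rw [he]; exact this
        · intro hc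
          have hx : m⁻¹ * (φ e m * c * (φ e m)⁻¹) * m ∈ C := by
            refine (hm2 _).2 ?_
            have : m * (m⁻¹ * (φ e m * c * (φ e m)⁻¹) * m) * m⁻¹ = φ e m * c * (φ e m)⁻¹ := by group
            rw [this]; exact hc
          have h := hCfix _ hx e
          rw [map_mul, map_mul, map_inv, hCfix _ hc e] at h
          have : c = (φ e m)⁻¹ * (φ e m * c * (φ e m)⁻¹) * φ e m := by group
          rw [this, h]; exact hx
      rcases hsub _ inf_le_left hN with h | h
      · intro y hy; rw [← h] at hy; exact hy.2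
      · exfalso
        have : Fact (Nat.Prime 2) := ⟨Nat.prime_two⟩
        have : Group.IsNilpotent X := h2.isNilpotent
        have hlt : C.subgroupOf Y < ⊤ := by
          rw [lt_top_iff_ne_top]
          exact fun h => hYC (Subgroup.subgroupOf_eq_top.1 h)
        obtain ⟨m, hm, hmC⟩ := SetLike.exists_of_lt
          (Group.normalizerCondition_of_isNilpotent (G := ↥Y) _ hlt)
        refine hmC (Subgroup.mem_subgroupOf.2 (h ⟨m.2, Subgroup.mem_normalizer_iff.2 fun c => ?_⟩))
        have hm' := Subgroup.mem_normalizer_iff.1 hm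
        constructor
        · intro hc
          have := (hm' ⟨c, hCY hc⟩).1 hc
          exact this
        · intro hc
          have hcY : c ∈ Y := by
            have h1 : c = (m : X)⁻¹ * ((m : X) * c * (m : X)⁻¹) * m := by group
            rw [h1]
            exact Y.mul_mem (Y.mul_mem (Y.inv_mem m.2) (hCY hc)) m.2
          exact (hm' ⟨c, hcY⟩).2 hc
    -- C is central in Y
    have hcen : ∀ c ∈ C, ∀ y ∈ Y, c * y = y * c := by
      intro c hc y hy
      have hle : D ≤ Subgroup.centralizer (C : Set X) := (Subgroup.closure_le _).2 (by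
        rintro _ ⟨e, y, hy, rfl⟩
        refine Subgroup.mem_centralizer_iff.2 fun c hc => ?_
        have hc' : y * c * y⁻¹ ∈ C := (Subgroup.mem_normalizer_iff.1 (hnor y hy) c).1 hc
        have h := hCfix _ hc' e
        rw [map_mul, map_mul, map_inv, hCfix c hc e] at h
        calc c * (y⁻¹ * φ e y) = y⁻¹ * (y * c * y⁻¹) * φ e y := by group
          _ = y⁻¹ * (φ e y * c * (φ e y)⁻¹) * φ e y := by rw [h]
          _ = y⁻¹ * φ e y * c := by group)
      exact Subgroup.mem_centralizer_iff.1 (hle (hDY ▸ hy)) c hc
    -- the quotient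
    set C0 : Subgroup ↥Y := C.subgroupOf Y with hC0
    haveI : C0.Normal := ⟨fun c hc y => (Subgroup.mem_normalizer_iff.1 (hnor y y.2) c).1 hc⟩
    have hmk : ∀ y z : ↥Y, (QuotientGroup.mk y : ↥Y ⧸ C0) = QuotientGroup.mk z ↔
        (y : X)⁻¹ * (z : X) ∈ C := fun y z => QuotientGroup.eq
    let k : X → X → X := fun x y => (x * y)⁻¹ * (y * x)
    have hk : ∀ x y, y * x = x * y * k x y := fun x y => (mul_inv_cancel_left _ _).symm
    have hkC : ∀ x ∈ Y, ∀ y ∈ Y, k x y ∈ C := by
      have : Fact (Nat.Prime 2) := ⟨Nat.prime_two⟩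
      set Z := ((Subgroup.center (↥Y ⧸ C0)).comap (QuotientGroup.mk' C0)).map Y.subtype with hZ
      have hmem : ∀ x, x ∈ Z ↔ x ∈ Y ∧ ∀ y ∈ Y, k x y ∈ C := by
        intro x
        constructor
        · rintro ⟨a, ha, rfl⟩
          refine ⟨a.2, fun y hy => ?_⟩
          exact (hmk (a * ⟨y, hy⟩) (⟨y, hy⟩ * a)).1
            (Subgroup.mem_center_iff.1 ha (QuotientGroup.mk' C0 ⟨y, hy⟩)).symm
        · rintro ⟨hx, h⟩
          refine ⟨⟨x, hx⟩, Subgroup.mem_center_iff.2 fun g => ?_, rfl⟩
          induction g using QuotientGroup.induction_on with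
          | H y => exact ((hmk (⟨x, hx⟩ * y) (y * ⟨x, hx⟩)).2 (h y y.2)).symm
      rcases hsub Z (Subgroup.map_subtype_le _) (fun e x hx => by
          rw [hmem] at hx ⊢
          refine ⟨hY e x hx.1, fun y hy => ?_⟩
          have h1 := hx.2 (φ e⁻¹ y) (hY _ y hy)
          have h2 := hCfix _ h1 e
          have hy' : φ e (φ e⁻¹ y) = y := by
            rw [← MulAut.mul_apply, ← map_mul, mul_inv_cancel, map_one, MulAut.one_apply]
          change φ e ((x * φ e⁻¹ y)⁻¹ * (φ e⁻¹ y * x)) = _ at h2
          rw [map_mul (φ e), map_inv (φ e), map_mul (φ e), map_mul (φ e), hy'] at h2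
          show (φ e x * y)⁻¹ * (y * φ e x) ∈ C
          rw [h2]; exact h1) with h | h
      · intro x hx; rw [← h, hmem] at hx; exact hx.2
      · exfalso
        haveI : Nontrivial (↥Y ⧸ C0) := (QuotientGroup.nontrivial_iff).2
          fun h => hYC (Subgroup.subgroupOf_eq_top.1 h)
        haveI : Nontrivial (Subgroup.center (↥Y ⧸ C0)) :=
          ((h2.to_subgroup Y).to_quotient C0).center_nontrivial
        obtain ⟨⟨g, hg⟩, hg1⟩ := exists_ne (1 : Subgroup.center (↥Y ⧸ C0))
        obtain ⟨a, rfl⟩ := QuotientGroup.mk_surjective g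
        exact hg1 (Subtype.ext ((QuotientGroup.eq_one_iff a).2 (h ⟨a, hg, rfl⟩)))
    have hkc : ∀ x ∈ Y, ∀ y ∈ Y, ∀ z ∈ Y, k x y * z = z * k x y :=
      fun x hx y hy z hz => hcen _ (hkC x hx y hy) z hz
    -- squares lie in C
    have hsq2 : ∀ x ∈ Y, ∀ y ∈ Y, x * y * (x * y) = x * x * (y * y) * k x y := fun x hx y hy => by
      calc x * y * (x * y) = x * (y * x) * y := by group
        _ = x * (x * y * k x y) * y := by rw [← hk]
        _ = x * x * y * (k x y * y) := by group
        _ = x * x * y * (y * k x y) := by rw [hkc x hx y hy y hy]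
        _ = _ := by group
    have hsqC : ∀ y ∈ Y, y * y ∈ C := by
      let N : Subgroup X :=
        { carrier := {y | y ∈ Y ∧ y * y ∈ C}
          one_mem' := ⟨Y.one_mem, by rw [one_mul]; exact C.one_mem⟩
          mul_mem' := fun {a b} ha hb => ⟨Y.mul_mem ha.1 hb.1, by
            rw [hsq2 a ha.1 b hb.1]
            exact C.mul_mem (C.mul_mem ha.2 hb.2) (hkC a ha.1 b hb.1)⟩
          inv_mem' := fun {a} ha => ⟨Y.inv_mem ha.1, by rw [← mul_inv_rev]; exact C.inv_mem ha.2⟩ }
      rcases hsub N (fun y hy => hy.1) (fun e y hy => ⟨hY e y hy.1, by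
          rw [← map_mul, hCfix _ hy.2 e]; exact hy.2⟩) with h | h
      · intro y hy; rw [← h] at hy; exact hy.2
      · exfalso
        obtain ⟨y, hy, hyC⟩ := SetLike.not_le_iff_exists.1 hYC
        obtain ⟨m, hm⟩ := h2 y
        have key : ∀ j, y ^ 2 ^ j ∈ C → y ∈ C := by
          intro j
          induction j with
          | zero => simp
          | succ j ih =>
            intro hj
            refine ih (h ⟨Y.pow_mem hy _, ?_⟩)
            rwa [← pow_add, ← two_mul, ← pow_succ']
        exact hyC (key m (hm ▸ C.one_mem))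
    -- the commutator is bilinear of exponent two
    have hkadd : ∀ x ∈ Y, ∀ y ∈ Y, ∀ z ∈ Y, k x (y * z) = k x y * k x z := fun x hx y hy z hz => by
      have : y * z * x = x * (y * z) * (k x y * k x z) := by
        calc y * z * x = y * (z * x) := mul_assoc _ _ _
          _ = y * (x * z * k x z) := by rw [← hk]
          _ = y * x * (z * k x z) := by group
          _ = x * y * k x y * (z * k x z) := by rw [← hk]
          _ = x * y * (k x y * z) * k x z := by group
          _ = x * y * (z * k x y) * k x z := by rw [hkc x hx y hy z hz]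
          _ = _ := by group
      show (x * (y * z))⁻¹ * (y * z * x) = _
      rw [this, inv_mul_cancel_left]
    have hk2 : ∀ x ∈ Y, ∀ y ∈ Y, k x y * k x y = 1 := fun x hx y hy => by
      rw [← hkadd x hx y hy y hy]
      show (x * (y * y))⁻¹ * (y * y * x) = 1
      rw [hcen _ (hsqC y hy) x hx, inv_mul_cancel]
    -- exponent four
    let f4 : X → X := fun y => y * y * (y * y)
    have hf4mul : ∀ x ∈ Y, ∀ y ∈ Y, f4 (x * y) = f4 x * f4 y := fun x hx y hy => by
      show x * y * (x * y) * (x * y * (x * y)) = x * x * (x * x) * (y * y * (y * y))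
      rw [hsq2 x hx y hy]
      calc x * x * (y * y) * k x y * (x * x * (y * y) * k x y)
          = x * x * (y * y) * (k x y * (x * x * (y * y))) * k x y := by group
        _ = x * x * (y * y) * (x * x * (y * y) * k x y) * k x y := by
            rw [hkc x hx y hy _ (Y.mul_mem (Y.mul_mem hx hx) (Y.mul_mem hy hy))]
        _ = x * x * ((y * y) * (x * x)) * (y * y) * (k x y * k x y) := by group
        _ = x * x * ((x * x) * (y * y)) * (y * y) * (k x y * k x y) := by
            rw [hcen _ (hsqC y hy) _ (Y.mul_mem hx hx)]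
        _ = _ := by rw [hk2 x hx y hy, mul_one]; group
    have h4Y : ∀ y ∈ Y, f4 y = 1 := by
      let K : Subgroup X :=
        { carrier := {y | y ∈ Y ∧ f4 y = 1}
          one_mem' := ⟨Y.one_mem, by simp [f4]⟩
          mul_mem' := fun {a b} ha hb => ⟨Y.mul_mem ha.1 hb.1, by
            rw [hf4mul a ha.1 b hb.1, ha.2, hb.2, one_mul]⟩
          inv_mem' := fun {a} ha => ⟨Y.inv_mem ha.1, by
            show a⁻¹ * a⁻¹ * (a⁻¹ * a⁻¹) = 1
            rw [← mul_inv_rev, ← mul_inv_rev, show a * a * (a * a) = 1 from ha.2, inv_one]⟩ }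
      have hle : D ≤ K := (Subgroup.closure_le _).2 (by
        rintro _ ⟨e, y, hy, rfl⟩
        refine ⟨Y.mul_mem (Y.inv_mem hy) (hY e y hy), ?_⟩
        rw [hf4mul _ (Y.inv_mem hy) _ (hY e y hy)]
        show y⁻¹ * y⁻¹ * (y⁻¹ * y⁻¹) * (φ e y * φ e y * (φ e y * φ e y)) = 1
        rw [← map_mul, ← map_mul, hCfix _ (C.mul_mem (hsqC y hy) (hsqC y hy)) e, ← mul_inv_rev,
          ← mul_inv_rev, inv_mul_cancel])
      intro y hy
      exact (hle (hDY ▸ hy)).2
    -- the value group
    let F0 : Subgroup X :=
      { carrier := {c | c ∈ C ∧ c * c = 1}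
        one_mem' := ⟨C.one_mem, one_mul 1⟩
        mul_mem' := fun {a b} ha hb => ⟨C.mul_mem ha.1 hb.1, by
          calc a * b * (a * b) = a * (b * a) * b := by group
            _ = a * (a * b) * b := by rw [hcen b hb.1 a (hCY ha.1)]
            _ = (a * a) * (b * b) := by group
            _ = 1 := by rw [ha.2, hb.2, one_mul]⟩
        inv_mem' := fun {a} ha => ⟨C.inv_mem ha.1, by rw [← mul_inv_rev, ha.2, inv_one]⟩ }
    letI : CommGroup ↥F0 :=
      { (inferInstance : Group ↥F0) with
        mul_comm := fun a b => Subtype.ext (hcen a a.2.1 b (hCY b.2.1)) }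
    let S0 : Subgroup ↥F0 :=
      { carrier := {f | ∃ c ∈ C, (f : X) = c * c}
        one_mem' := ⟨1, C.one_mem, by simp⟩
        mul_mem' := by
          rintro a b ⟨c, hc, hca⟩ ⟨d, hd, hdb⟩
          refine ⟨c * d, C.mul_mem hc hd, ?_⟩
          rw [Subgroup.coe_mul, hca, hdb]
          calc c * c * (d * d) = c * (c * d) * d := by group
            _ = c * (d * c) * d := by rw [hcen c hc d (hCY hd)]
            _ = _ := by group
        inv_mem' := by
          rintro a ⟨c, hc, hca⟩
          exact ⟨c⁻¹, C.inv_mem hc, by rw [Subgroup.coe_inv, hca, mul_inv_rev]⟩ }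
    obtain ⟨ψ, hψ, hψ0⟩ := exists_four_embedding (↥F0 ⧸ S0) (fun a => by
        induction a using QuotientGroup.induction_on with
        | H f => exact congrArg (QuotientGroup.mk (s := S0)) (Subtype.ext f.2.2 : f * f = 1))
      ((Nat.card_le_card_of_surjective _ QuotientGroup.mk_surjective).trans
        ((Nat.card_le_card_of_injective (fun f : ↥F0 => (⟨f.1, f.2.2⟩ : {x : X // x * x = 1}))
          (fun a b h => Subtype.ext (congrArg (fun z : {x : X // x * x = 1} => z.1) h))).trans h4))
    let q0 : ↥Y → U := fun y =>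
      ψ (QuotientGroup.mk (⟨(y : X) * y, hsqC y y.2, h4Y y y.2⟩ : ↥F0))
    let B0 : ↥Y → ↥Y → U := fun x y =>
      ψ (QuotientGroup.mk (⟨k x y, hkC x x.2 y y.2, hk2 x x.2 y y.2⟩ : ↥F0))
    have hq0mul : ∀ x y : ↥Y, q0 (x * y) = q0 x + q0 y + B0 x y := fun x y => by
      simp only [q0, B0, ← hψ, ← QuotientGroup.mk_mul]
      exact congrArg _ (congrArg _ (Subtype.ext (hsq2 x x.2 y y.2)))
    have hB0 : ∀ x y z : ↥Y, B0 x (y * z) = B0 x y + B0 x z := fun x y z => by
      simp only [B0, ← hψ, ← QuotientGroup.mk_mul]
      exact congrArg _ (congrArg _ (Subtype.ext (hkadd x x.2 y y.2 z z.2)))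
    have hψ1 : ψ 1 = 0 := by
      have h := hψ 1 1
      rw [one_mul] at h
      exact left_eq_add.1 h
    have hq0C : ∀ y z : ↥Y, (y : X)⁻¹ * z ∈ C → q0 y = q0 z := fun y z h => by
      obtain ⟨c, hc, hz⟩ : ∃ c : ↥Y, (c : X) ∈ C ∧ z = y * c :=
        ⟨y⁻¹ * z, h, (mul_inv_cancel_left _ _).symm⟩
      have hq : q0 c = 0 := by
        simp only [q0]
        rw [(QuotientGroup.eq_one_iff (N := S0) _).2 ⟨(c : X), hc, rfl⟩, hψ1]
      have hB : B0 y c = 0 := by
        simp only [B0]
        rw [show (⟨k y c, hkC y y.2 c c.2, hk2 y y.2 c c.2⟩ : ↥F0) = 1 from Subtype.ext (by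
          show ((y : X) * c)⁻¹ * (c * y) = 1
          rw [hcen _ hc y y.2, inv_mul_cancel]), QuotientGroup.mk_one, hψ1]
      rw [hz, hq0mul, hq, hB, add_zero, add_zero]
    letI : CommGroup (↥Y ⧸ C0) :=
      { (inferInstance : Group (↥Y ⧸ C0)) with
        mul_comm := fun a b => by
          induction a using QuotientGroup.induction_on with
          | H x =>
            induction b using QuotientGroup.induction_on with
            | H y => exact (hmk (x * y) (y * x)).2 (hkC x x.2 y y.2) }
    let q : Additive (↥Y ⧸ C0) → U := fun w => q0 (Quotient.out (Additive.toMul w))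
    have hq : ∀ y : ↥Y, q (Additive.ofMul (QuotientGroup.mk y)) = q0 y := fun y =>
      hq0C _ _ ((hmk _ _).1 (QuotientGroup.out_eq' _))
    let b : Additive (↥Y ⧸ C0) → Additive (↥Y ⧸ C0) → U := fun v w => q (v + w) + q v + q w
    have hchar : ∀ a c d : U, a = c + d + (a + c + d) := by
      intro a c d
      calc a = a + (c + c) + (d + d) := by rw [U_add_self, U_add_self, add_zero, add_zero]
        _ = _ := by abel
    have hb : ∀ x y : ↥Y, b (Additive.ofMul (QuotientGroup.mk x))
        (Additive.ofMul (QuotientGroup.mk y)) = B0 x y := fun x y => by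
      show q (Additive.ofMul (QuotientGroup.mk (x * y))) + _ + _ = _
      rw [hq, hq, hq, hq0mul]
      calc q0 x + q0 y + B0 x y + q0 x + q0 y
          = (q0 x + q0 x) + (q0 y + q0 y) + B0 x y := by abel
        _ = B0 x y := by rw [U_add_self, U_add_self, add_zero, zero_add]
    let σ : E → ↥Y →* ↥Y := fun e =>
      { toFun := fun y => ⟨φ e y, hY e y y.2⟩
        map_one' := Subtype.ext (map_one _)
        map_mul' := fun a b => Subtype.ext (map_mul _ _ _) }
    let T : E → (↥Y ⧸ C0) →* (↥Y ⧸ C0) := fun e =>
      QuotientGroup.map C0 C0 (σ e) (fun c hc => by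
        show φ e c ∈ C
        rw [hCfix c hc e]; exact hc)
    have hT : ∀ e e' g, T (e * e') g = T e (T e' g) := fun e e' g => by
      induction g using QuotientGroup.induction_on with
      | H y =>
        show (QuotientGroup.mk (σ (e * e') y) : ↥Y ⧸ C0) = QuotientGroup.mk (σ e (σ e' y))
        congr 1
        refine Subtype.ext ?_
        show φ (e * e') y = φ e (φ e' y)
        rw [map_mul, MulAut.mul_apply]
    have hT1 : ∀ g, T 1 g = g := fun g => by
      induction g using QuotientGroup.induction_on with
      | H y =>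
        show (QuotientGroup.mk (σ 1 y) : ↥Y ⧸ C0) = QuotientGroup.mk y
        congr 1
        refine Subtype.ext ?_
        show φ 1 y = _
        rw [map_one, MulAut.one_apply]
    let ρ : E →* Equiv.Perm (Additive (↥Y ⧸ C0)) :=
      { toFun := fun e =>
          { toFun := fun w => Additive.ofMul (T e (Additive.toMul w))
            invFun := fun w => Additive.ofMul (T e⁻¹ (Additive.toMul w))
            left_inv := fun w => by simp [← hT, hT1]
            right_inv := fun w => by simp [← hT, hT1] }
        map_one' := Equiv.ext fun w => by simp [hT1]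
        map_mul' := fun e e' => Equiv.ext fun w => by simp [hT] }
    -- every coset is trivial
    have hall := eq_zero_of_perfect
      (h2 := fun w => by
        induction w using Additive.rec with
        | ofMul g =>
          induction g using QuotientGroup.induction_on with
          | H y => exact congrArg Additive.ofMul ((QuotientGroup.eq_one_iff (y * y)).2 (hsqC y y.2)))
      q b (fun v w => hchar _ _ _)
      (fun u v w => by
        induction u using Additive.rec with
        | ofMul g₁ =>
          induction v using Additive.rec with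
          | ofMul g₂ =>
            induction w using Additive.rec with
            | ofMul g₃ =>
              induction g₁ using QuotientGroup.induction_on with
              | H x =>
                induction g₂ using QuotientGroup.induction_on with
                | H y =>
                  induction g₃ using QuotientGroup.induction_on with
                  | H z =>
                    show b _ (Additive.ofMul (QuotientGroup.mk (y * z))) = _
                    rw [hb, hb, hb, hB0])
      (fun w hw => by
        induction w using Additive.rec with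
        | ofMul g =>
          induction g using QuotientGroup.induction_on with
          | H y =>
            rw [hq] at hw
            obtain ⟨c, hc, hyc⟩ := (QuotientGroup.eq_one_iff _).1 (hψ0 _ hw)
            have hyc' : (y : X) * y = c * c := hyc
            have h1 : ((y : X) * c⁻¹) * ((y : X) * c⁻¹) = 1 := by
              calc ((y : X) * c⁻¹) * ((y : X) * c⁻¹) = (y : X) * (c⁻¹ * y) * c⁻¹ := by group
                _ = (y : X) * (y * c⁻¹) * c⁻¹ := by rw [hcen _ (C.inv_mem hc) y y.2]
                _ = (y : X) * y * (c⁻¹ * c⁻¹) := by group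
                _ = 1 := by rw [hyc']; group
            have h3 : (y : X) * c⁻¹ ∈ C :=
              ⟨Y.mul_mem y.2 (Y.inv_mem (hCY hc)), fun e => hinv e _ h1⟩
            have h5 : (y : X) ∈ C := by simpa using C.mul_mem h3 hc
            exact congrArg Additive.ofMul ((QuotientGroup.eq_one_iff y).2 h5))
      ρ (fun e v w => by simp [ρ])
      (fun e w => by
        induction w using Additive.rec with
        | ofMul g =>
          induction g using QuotientGroup.induction_on with
          | H y =>
            show q (Additive.ofMul (QuotientGroup.mk (σ e y))) = _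
            rw [hq, hq]
            simp only [q0]
            congr 2
            refine Subtype.ext ?_
            show φ e y * φ e y = _
            rw [← map_mul, hCfix _ (hsqC y y.2) e])
      hperf
      (fun w hw => by
        induction w using Additive.rec with
        | ofMul g =>
          induction g using QuotientGroup.induction_on with
          | H y =>
            have h5 : (y : X) ∈ C := hfx y y.2 fun e =>
              (hmk y (σ e y)).1 (Additive.ofMul.injective (hw e)).symm
            exact congrArg Additive.ofMul ((QuotientGroup.eq_one_iff y).2 h5))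
    exact hYC fun y hy => (QuotientGroup.eq_one_iff (⟨y, hy⟩ : ↥Y)).1
      (Additive.ofMul.injective (hall (Additive.ofMul (QuotientGroup.mk ⟨y, hy⟩))))

/-- A perfect group fixing every involution of a two-group with few involutions acts trivially. -/
theorem fixed_of_perfect (h2 : IsPGroup 2 X) (hperf : commutator E = ⊤)
    (hinv : ∀ e x, x * x = 1 → φ e x = x) (h4 : Nat.card {x : X // x * x = 1} ≤ 4) (e : E) (x : X) :
    φ e x = x :=
  fixed_of_invariant φ h2 hperf hinv h4 _ ⊤ rfl (fun _ _ _ => Subgroup.mem_top _) x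
    (Subgroup.mem_top _) e

end Cfsg.Agent.H49.ThreeInv
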